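import Cfsg.Agent.Lib.ToddCox.Glue
set_option autoImplicit false
set_option maxRecDepth 100000
namespace Cfsg.Agent.Lib.ToddCox.J2C2
def E_0 : ℕ := 0x50800001000001020000050000050400001400001410000050000030800000c00000c20000030000020800000800000820000020000010000000400000400000010000000400000000000010000000000000000000000000000000000000040000001400001400000040000030400001000001010000030000020000000c00000c0000002000001040000080000081000001000000080000040000042000000
end Cfsg.Agent.Lib.ToddCox.J2C2
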