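import Cfsg.Agent.Lib.ToddCox.J2C2.Data
set_option autoImplicit false
set_option maxRecDepth 100000
namespace Cfsg.Agent.Lib.ToddCox.J2C2
theorem wordsGood : allBelow (wordsOK W (relR Rb inv) inv sp) nW 3 = true := by decide +kernel
theorem d0 : allBits (fun k => bif Nat.blt k 5 then chkDef Eo inv k else true) 13 0 = true := by decide +kernel
theorem s0 : chkStream Eo inv W isH 7 5 0x80000030000010000004000000000006800002c00001a00000b000000800000c00000a0000120000038000010000010000006000002000000800001c000003000002800001c000012000003000002000004000000a000002000001000000000001a000001000001800000400000000000b0000008000003ffffffffffff = true := by decide +kernel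
theorem c0 : Covered Eo inv W isH 5 12 := covered_of_stream 7 5 _ s0
theorem l0 : chkPoints Eo cF (2 * nEv) N ys 6 0 0xb000001000002a000005000004800001000002e000005000003800000c000010000005000009800000c00000c00000400000280000080000220000020000018000004000008000003000000800000000000400000200000780000040000000000010000060000000000014000000 = true := by decide +kernel
theorem k0 : LinksOK Eo cF (2 * nEv) N ys 0 6 := linksOK_of_points 6 0 _ l0
end Cfsg.Agent.Lib.ToddCox.J2C2
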